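import Cfsg.Agent.Lib.Mult.Suz.CvD

set_option autoImplicit false
set_option maxRecDepth 100000
set_option Elab.async false

namespace Cfsg.Agent.Mult.Suz

open Cfsg.Agent.CG Cfsg.Agent.CG.Suz

theorem cvc0 : cv0.chk tcR 0 833 = true := by decide +kernel
theorem cvc1 : cv0.chk tcR 833 139 = true := by decide +kernel
theorem cvc2 : cv0.chk tcR 972 118 = true := by decide +kernel
theorem cvc3 : cv0.chk tcR 1090 82 = true := by decide +kernel
theorem cvc4 : cv0.chk tcR 1172 88 = true := by decide +kernel
theorem cvc5 : cv0.chk tcR 1260 81 = true := by decide +kernel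
theorem cvc6 : cv0.chk tcR 1341 68 = true := by decide +kernel
theorem cvc7 : cv0.chk tcR 1409 41 = true := by decide +kernel
theorem cvc8 : cv0.chk tcR 1450 33 = true := by decide +kernel
theorem cvc9 : cv0.chk tcR 1483 34 = true := by decide +kernel
theorem cvc10 : cv0.chk tcR 1517 65 = true := by decide +kernel
theorem cvc11 : cv0.chk tcR 1582 61 = true := by decide +kernel
theorem cvc12 : cv0.chk tcR 1643 45 = true := by decide +kernel
theorem cvc13 : cv0.chk tcR 1688 32 = true := by decide +kernel
theorem cvc14 : cv0.chk tcR 1720 37 = true := by decide +kernel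
theorem cvc15 : cv0.chk tcR 1757 36 = true := by decide +kernel
theorem cvc16 : cv0.chk tcR 1793 15 = true := by decide +kernel
theorem cvc17 : cv0.chkP cvP [1,0] = true := by decide +kernel
theorem cvc18 : cv1.chk tcR 0 1461 = true := by decide +kernel
theorem cvc19 : cv1.chk tcR 1461 8 = true := by decide +kernel
theorem cvc20 : cv1.chkP cvP [0,1] = true := by decide +kernel
theorem cvc21 : chkPairs app bs tcS cvP = true := by decide +kernel

end Cfsg.Agent.Mult.Suz
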